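import Cfsg.Agent.Mult.Emb
import Cfsg.Agent.Mult.E

set_option autoImplicit false
set_option maxRecDepth 100000

/-!
Centres of the Steinberg groups of types E6 and E7.
-/

namespace Cfsg.Agent.Mult

open Cfsg Cfsg.Lie Cfsg.Agent.Chev Cfsg.Agent.Steinb Cfsg.Agent.ChevGrp

lemma card_units' {F : Type*} [Field F] [Fintype F] {q : ℕ} (hq : Fintype.card F = q) : Nat.card Fˣ = q - 1 := by
  classical
  rw [Nat.card_eq_fintype_card, Fintype.card_units, hq]

theorem center_E6 {F : Type*} [Field F] [Fintype F] {q : ℕ} (hq : Fintype.card F = q) :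
    Nat.card (Subgroup.center (chevE6.SteinbergGroup F)) = Nat.gcd 3 (q - 1) := by
  have : Finite F := Finite.of_fintype F
  rw [card_center (by simp [data]) (emb_of_chk good1_E6 slData_E6.sl slData_E8.sl chkEmb_E6) (by decide) cyc_E6,
    card_units' hq]

theorem center_E7 {F : Type*} [Field F] [Fintype F] {q : ℕ} (hq : Fintype.card F = q) :
    Nat.card (Subgroup.center (chevE7.SteinbergGroup F)) = Nat.gcd 2 (q - 1) := by
  have : Finite F := Finite.of_fintype F
  rw [card_center (by simp [data]) (emb_of_chk good1_E7 slData_E7.sl slData_E8.sl chkEmb_E7) (by decide) cyc_E7,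
    card_units' hq]

lemma gcd_prime_or {p m : ℕ} (hp : p.Prime) : Nat.gcd p m = 1 ∨ (Nat.gcd p m).Prime := by
  rcases (Nat.dvd_prime hp).1 (Nat.gcd_dvd_left p m) with h | h
  · exact Or.inl h
  · right; rw [h]; exact hp

end Cfsg.Agent.Mult
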