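import Cfsg.Agent.Mult.B2
import Cfsg.Agent.Mult.Final
import Cfsg.Agent.Mult.Univ

set_option autoImplicit false
set_option maxRecDepth 100000

/-!
The Steinberg groups are centrally closed.
-/

namespace Cfsg.Agent.Mult

open Cfsg Cfsg.Lie Cfsg.Agent.Chev Cfsg.Agent.Steinb Cfsg.Agent.ChevGrp
open scoped commutatorElement

universe u

/-- all types, fields with more than four elements -/
theorem exists_pre_big {D : ChevalleyDatum} (hD : D ∈ data) {F : Type*} [Field F] (hF : ∃ s : Finset F, 4 < s.card)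
    {Γ : Type*} [Group Γ] {σ : Γ →* ↥(D.group F)} (C : CE σ) :
    ∃ P : PreSt (good_of_mem hD) F Γ, P.θ = (D.group F).subtype.comp σ := by
  have h2 : ∃ s : Finset F, 2 < s.card := by obtain ⟨s, hs⟩ := hF; exact ⟨s, by omega⟩
  have hD' := hD
  simp only [data, List.mem_cons, List.not_mem_nil, or_false] at hD'
  rcases hD' with rfl | rfl | rfl | rfl | rfl | rfl | rfl
  · exact exists_pre_G2 hF C _
  · exact exists_pre_B2 _ C h2
  · exact exists_pre_D4 h2 C _
  · exact exists_pre_F4 h2 C _
  · exact slData_E6.exists_pre _ C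
  · exact slData_E7.exists_pre _ C
  · exact slData_E8.exists_pre _ C

theorem chkPf_B2 : chkPf chevB2 2 = true := by decide +kernel

/-- perfectness for type B2 -/
theorem perf_B2' {H : Good chevB2} {F : Type*} [Field F] {Γ : Type*} [Group Γ] (P : PreSt H F Γ)
    (hG : P.Gen) (hF : ∃ s : Finset F, 2 < s.card) : commutator Γ = ⊤ := by
  by_cases h4 : ∃ s : Finset F, 3 < s.card
  · exact perf_torus sp_B2 P hG (BigF.of_finset h4) chkPf_B2
  · obtain ⟨h3, hall⟩ := three_of hF h4
    have hM : BigF F 1 := BigF.of_finset hF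
    rw [eq_top_iff]
    have h1 : (⊤ : Subgroup Γ) = P.gen (fun _ => True) := hG.symm
    rw [h1, P.gen_le]
    intro k hk _ t
    have hk' : k < 8 := hk
    have hc : (allN 8 fun k => !(allN 2 fun i => !(smB 1 (cartF chevB2 i k))) || (pairD.any fun d => Nat.beq d.1 k)) = true := by
      decide +kernel
    have h2 := allN_imp hc hk'
    rw [Bool.or_eq_true, List.any_eq_true] at h2
    rcases h2 with h2 | ⟨d, hd, he⟩
    · rw [Bool.not_eq_true', ← Bool.not_eq_true, allN_iff] at h2
      push Not at h2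
      obtain ⟨i, hi, h5⟩ := h2
      have hi : i < chevB2.rank := hi
      rw [ne_eq, Bool.not_eq_true', Bool.not_eq_false, H.cart i hi k hk] at h5
      obtain ⟨h6, h7⟩ := smB_iff h5
      obtain ⟨c, hc, h8⟩ := hM _ h6 h7
      have h9 := (PreSt.tact_hr (P := P) sp_B2 hi hc).act k hk ((c ^ chevB2.cartan i k - 1)⁻¹ * t)
      rw [chr_chiH H.toGood1 _ _ hk, pr_simple H.toGood1 hi] at h9
      have h0 : c ^ chevB2.cartan i k - 1 ≠ 0 := sub_ne_zero.2 h8
      have e : P.x k t = ⁅P.hr (chevB2.simple i) c, P.x k ((c ^ chevB2.cartan i k - 1)⁻¹ * t)⁆ := by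
        rw [commutatorElement_def, h9, ← P.x_neg hk, P.add hk]
        congr 1
        simp only [Units.val_zpow_eq_zpow_val, Units.val_mk0]
        rw [← sub_eq_add_neg, ← sub_one_mul, mul_inv_cancel_left₀ h0]
      rw [e, commutator_def]
      exact Subgroup.commutator_mem_commutator (Subgroup.mem_top _) (Subgroup.mem_top _)
    · have he := Nat.eq_of_beq_eq_true he
      have h := List.all_eq_true.1 chk_pair d hd
      simp only [Bool.and_eq_true, Bool.or_eq_true, decide_eq_true_eq] at h
      obtain ⟨h5, -, -, h6, h7, h8, h9, h10⟩ := h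
      have key : ∀ M : ℤ, chevB2.commTerms d.2.1 d.2.2 = [(d.1, M, 1, 1)] → (M : F) * M = 1 → P.x k t ∈ commutator Γ := by
        intro M hM' hMM
        have h11 := P.comm (show d.2.1 < chevB2.nroots from h7) (show d.2.2 < chevB2.nroots from h8) h9 h10 (-((M : F) * t)) 1
        unfold ChevalleyDatum.commWord at h11
        rw [hM'] at h11
        simp only [List.map_cons, List.map_nil, List.prod_cons, List.prod_nil, mul_one, pow_one, _root_.neg_neg] at h11
        rw [← mul_assoc, hMM, one_mul, he] at h11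
        rw [← h11, commutator_def]
        have h3 : (P.x d.2.2 1)⁻¹ * (P.x d.2.1 (-((M : F) * t)))⁻¹ * P.x d.2.2 1 * P.x d.2.1 (-((M : F) * t)) =
            ⁅(P.x d.2.2 1)⁻¹, (P.x d.2.1 (-((M : F) * t)))⁻¹⁆ := by rw [commutatorElement_def, inv_inv, inv_inv]
        rw [h3]
        exact Subgroup.commutator_mem_commutator (Subgroup.mem_top _) (Subgroup.mem_top _)
      rcases h5 with ⟨h5, -⟩ | ⟨h5, -⟩
      · exact key _ h5 (by push_cast; linear_combination h3)
      · exact key _ h5 (by push_cast; linear_combination h3)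

section

variable {D : ChevalleyDatum} {H : Good D} {F : Type*} [Field F] {Γ : Type*} [Group Γ] (P : PreSt H F Γ)

/-- a system satisfying (R1), (R2) receives a homomorphism from the group presented by (R1), (R2) -/
theorem exists_hom_cover : ∃ φ : D.SteinbergCover F →* Γ, ∀ r < D.nroots, ∀ t, φ (D.scGen F r t) = P.x r t := by
  have hrel : ∀ g ∈ D.steinbergRelsAB F, evP P g = 1 := by
    rintro g (⟨r, t₁, t₂, hr, rfl⟩ | ⟨r, s, t, u, hr, hs, h1, h2, rfl⟩)
    · rw [map_mul, map_inv, mul_inv_eq_one, map_mul, evP_stX P hr, evP_stX P hr, evP_stX P hr, P.add hr]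
    · rw [map_mul, map_inv, mul_inv_eq_one, map_mul, map_mul, map_mul, map_inv, map_inv, evP_stX P hr, evP_stX P hs,
        P.comm hr hs h1 h2, evP_word]
      intro p hp
      unfold ChevalleyDatum.commWord at hp
      obtain ⟨c, hc, rfl⟩ := List.mem_map.1 hp
      exact ((H.pairOK hr hs h1 h2).terms c hc).1
  refine ⟨PresentedGroup.toGroup (f := fun p : Fin D.nroots × F => P.x p.1 p.2) hrel, fun r hr t => ?_⟩
  have h1 : D.stX r t = FreeGroup.of ((⟨r, hr⟩ : Fin D.nroots), t) := by simp [ChevalleyDatum.stX, hr]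
  unfold ChevalleyDatum.scGen
  rw [h1]
  exact PresentedGroup.toGroup.of hrel

/-- the canonical system on the group presented by (R1), (R2) -/
noncomputable def scP (H : Good D) (F : Type*) [Field F] : PreSt H F (D.SteinbergCover F) :=
  preOf H (D.steinbergRelsAB F) (Set.Subset.refl _) (fX_relsAB H)

lemma scP_gen (H : Good D) (F : Type*) [Field F] : (scP H F).Gen := preOf_gen H (D.steinbergRelsAB F) _ _

lemma scP_x (r : ℕ) (t : F) : (scP H F).x r t = D.scGen F r t := rfl

/-- two homomorphisms agreeing on the root elements are equal -/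
lemma hom_ext_gen {P : PreSt H F Γ} (hG : P.Gen) {A : Type*} [Group A] {f g : Γ →* A}
    (h : ∀ r < D.nroots, ∀ t, f (P.x r t) = g (P.x r t)) : f = g := by
  have h1 : P.gen (fun _ => True) ≤ f.eqLocus g := by
    rw [P.gen_le]
    intro r hr _ t
    exact h r hr t
  have h2 : P.gen (fun _ => True) = ⊤ := hG
  rw [h2] at h1
  ext a
  exact h1 (Subgroup.mem_top a)

end

/-- perfectness of a group with root elements, fields with more than four elements -/
theorem perf_big {D : ChevalleyDatum} (hD : D ∈ data) {F : Type*} [Field F] (hF : ∃ s : Finset F, 4 < s.card)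
    {Γ : Type*} [Group Γ] (P : PreSt (good_of_mem hD) F Γ) (hG : P.Gen) : commutator Γ = ⊤ := by
  have h3 : ∃ s : Finset F, 3 < s.card := by obtain ⟨s, hs⟩ := hF; exact ⟨s, by omega⟩
  have h2 : ∃ s : Finset F, 2 < s.card := by obtain ⟨s, hs⟩ := hF; exact ⟨s, by omega⟩
  have hD' := hD
  simp only [data, List.mem_cons, List.not_mem_nil, or_false] at hD'
  rcases hD' with rfl | rfl | rfl | rfl | rfl | rfl | rfl
  · exact perf_torus sp_G2 P hG (BigF.of_finset hF) chkPf_G2
  · exact perf_B2' P hG h2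
  · exact perf_torus sp_D4 P hG (BigF.of_finset (by simpa using h2)) chkPf_D4
  · exact perf_torus sp_F4 P hG (BigF.of_finset (by simpa using h2)) chkPf_F4
  · exact slData_E6.perfect _ P hG
  · exact slData_E7.perfect _ P hG
  · exact slData_E8.perfect _ P hG

/-- the projection to the Chevalley group is a central extension -/
theorem ce_θG {D : ChevalleyDatum} (hD : D ∈ data) {F : Type*} [Field F]
    {Γ : Type*} [Group Γ] (P : PreSt (good_of_mem hD) F Γ) (hG : P.Gen) : CE (P.θG hG) := by
  obtain ⟨E⟩ := DData.nonempty_of_mem hD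
  refine ⟨P.θG_surjective hG, ?_⟩
  rw [P.θG_ker hG]
  exact PreSt.ker_le_center (sp_of_mem hD) E hG

/-- lifting to a central extension -/
theorem lift_cover {D : ChevalleyDatum} {H : Good D} {F : Type*} [Field F] {Γ : Type*} [Group Γ] {q : Γ →* ↥(D.group F)}
    (P : PreSt H F Γ) (hP : P.θ = (D.group F).subtype.comp q) :
    ∃ φ : D.SteinbergCover F →* Γ, q.comp φ = (scP H F).θG (scP_gen H F) := by
  obtain ⟨φ, hφ⟩ := exists_hom_cover P
  refine ⟨φ, hom_ext_gen (scP_gen H F) fun r hr t => ?_⟩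
  rw [MonoidHom.comp_apply, scP_x, hφ r hr]
  apply Subtype.ext
  apply Units.ext
  have h1 := P.θ_coe hr t
  rw [hP] at h1
  rw [← scP_x (H := H), (scP H F).θG_coe (scP_gen H F), (scP H F).θ_coe hr]
  exact h1

theorem lift_st {D : ChevalleyDatum} {H : Good D} {F : Type*} [Field F] {Γ : Type*} [Group Γ] {q : Γ →* ↥(D.group F)}
    (P : PreSt H F Γ) (hP : P.θ = (D.group F).subtype.comp q)
    (h3 : ∀ r < D.nroots, ∀ t u : F, t ≠ 0 → u ≠ 0 → P.hr r t * P.hr r u = P.hr r (t * u)) :
    ∃ φ : D.SteinbergGroup F →* Γ, q.comp φ = (stP H F).θG (stP_gen H F) := by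
  obtain ⟨φ, hφ⟩ := exists_hom P h3
  refine ⟨φ, hom_ext_gen (stP_gen H F) fun r hr t => ?_⟩
  have h0 : (stP H F).x r t = D.stGen F r t := rfl
  rw [MonoidHom.comp_apply, h0, hφ r hr]
  apply Subtype.ext
  apply Units.ext
  have h1 := P.θ_coe hr t
  rw [hP] at h1
  rw [← h0, (stP H F).θG_coe (stP_gen H F), (stP H F).θ_coe hr]
  exact h1

/-- universality of the group presented by (R1), (R2) -/
theorem cover_universal {D : ChevalleyDatum} (hD : D ∈ data) {F : Type*} [Field F] (hF : ∃ s : Finset F, 4 < s.card)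
    {G₁ E : Type*} [Group G₁] [Group E] (π₁ : E →* G₁) (hπ : Function.Surjective π₁) (hc : π₁.ker ≤ Subgroup.center E)
    (σ : D.SteinbergCover F →* G₁) : ∃! τ : D.SteinbergCover F →* E, π₁.comp τ = σ := by
  refine univ_of_lift (perf_big hD hF (scP _ F) (scP_gen _ F)) (ce_θG hD (scP _ F) (scP_gen _ F)) π₁ hπ hc σ (fun q Cq => ?_)
  obtain ⟨P, hP⟩ := exists_pre_big hD hF Cq
  exact lift_cover P hP

/-- finiteness -/
theorem finite_of_pre {D : ChevalleyDatum} (hD : D ∈ data) {F : Type*} [Field F] [Finite F]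
    {Γ : Type*} [Group Γ] (P : PreSt (good_of_mem hD) F Γ) (hG : P.Gen) : Finite Γ := by
  obtain ⟨E⟩ := DData.nonempty_of_mem hD
  have S := sp_of_mem hD
  have hT : Finite ↥P.T := by
    have h1 := (P.toSt S).tor_range S
    have h2 : (P.toSt S).toPreSt.T = P.T := rfl
    rw [← h2, ← h1]
    exact Set.finite_range _ |>.to_subtype
  have hker : Finite ↥P.θ.ker := by
    have h1 : P.θ.ker ≤ P.T := fun g hg => P.mem_T_of_ker S E hG hg
    exact Finite.of_injective (Subgroup.inclusion h1) (Subgroup.inclusion_injective h1)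
  have h3 : Finite ↥P.θ.range := Finite.of_injective _ Subtype.val_injective
  have h4 : Finite (Γ ⧸ P.θ.ker) := Finite.of_equiv _ (QuotientGroup.quotientKerEquivRange P.θ).symm.toEquiv
  exact Finite.of_equiv _ (Subgroup.groupEquivQuotientProdSubgroup (s := P.θ.ker)).symm

/-- the Steinberg group has trivial multiplier -/
theorem st_trivial {D : ChevalleyDatum} (hD : D ∈ data) {F : Type u} [Field F] [Finite F]
    (hperf : commutator (D.SteinbergGroup F) = ⊤)
    (hpre : ∀ (Γ : Type u) [Group Γ] (σ : Γ →* ↥(D.group F)), CE σ →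
      ∃ P : PreSt (good_of_mem hD) F Γ, P.θ = (D.group F).subtype.comp σ) :
    HasCyclicSchurMultiplier (D.SteinbergGroup F) 1 := by
  have hfin : Finite (D.SteinbergGroup F) := finite_of_pre hD (stP _ F) (stP_gen _ F)
  refine trivial_of_lift hperf (ce_θG hD (stP _ F) (stP_gen _ F)) (fun Γ _ q Cq => ?_)
  obtain ⟨P, hP⟩ := hpre Γ q Cq
  exact lift_st P hP fun r hr t u ht hu => P.r3_of_finite (sp_of_mem hD) r hr ht hu

end Cfsg.Agent.Mult
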