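import Cfsg.Agent.Mult.TData

set_option autoImplicit false
set_option maxRecDepth 100000

/-!
Lifted systems for the type B2.
-/

namespace Cfsg.Agent.Mult

open Cfsg.Lie Cfsg.Agent.Chev Cfsg.Agent.ChevTw Cfsg.Agent.ChevGrp Cfsg.Agent.Steinb
open scoped commutatorElement

section

variable {D : ChevalleyDatum} (H : Good D) {F : Type*} [Field F] {Γ : Type*} [Group Γ] {σ : Γ →* ↥(D.group F)} (C : CE σ)

/-- the commutator formula in the group -/
lemma comG {r s : ℕ} (hr : r < D.nroots) (hs : s < D.nroots) (h1 : s ≠ r) (h2 : s ≠ D.neg r) (t u : F) :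
    ⁅xG H.toGood2 s (-u), xG H.toGood2 r (-t)⁆ = wG H.toGood2 (D.commWord F r s t u) := by
  have h3 : xG H.toGood2 s u * xG H.toGood2 r t =
      xG H.toGood2 r t * xG H.toGood2 s u * wG H.toGood2 (D.commWord F r s t u) := by
    apply eq_of_coe
    simp only [Subgroup.coe_mul, Units.val_mul, xG_coe, wG_coe]
    exact H.comm hr hs h1 h2 t u
  rw [← xG_inv H.toGood2 hs, ← xG_inv H.toGood2 hr, commutatorElement_def, inv_inv, inv_inv, mul_assoc, h3]
  group

/-- a root subgroup centralizing `x_a`, `x_b` where the commutator has two terms -/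
lemma TrR_two {k a b p q : ℕ} {ε δ : ℤ} (ha : a < D.nroots) (hb : b < D.nroots)
    (h1 : b ≠ a) (h2 : b ≠ D.neg a) (hterms : D.commTerms a b = [(p, ε, 1, 1), (q, δ, 1, 2)])
    (hka : ∀ s t : F, xG H.toGood2 k s * xG H.toGood2 a t = xG H.toGood2 a t * xG H.toGood2 k s)
    (hkb : ∀ s t : F, xG H.toGood2 k s * xG H.toGood2 b t = xG H.toGood2 b t * xG H.toGood2 k s) (s t : F) :
    C.Tr (xG H.toGood2 k s) (xG H.toGood2 p ((ε : F) * (-t)) * xG H.toGood2 q ((δ : F) * (-t))) := by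
  have h3 := C.tr_comm (hkb s (-1)) (hka s (-t))
  rw [comG H ha hb h1 h2] at h3
  unfold ChevalleyDatum.commWord at h3
  rw [hterms] at h3
  simpa [wG] using h3

lemma TrR_two_q {k a b p q : ℕ} {ε δ : ℤ} (ha : a < D.nroots) (hb : b < D.nroots)
    (h1 : b ≠ a) (h2 : b ≠ D.neg a) (hterms : D.commTerms a b = [(p, ε, 1, 1), (q, δ, 1, 2)]) (hδ : δ = 1 ∨ δ = -1)
    (hka : ∀ s t : F, xG H.toGood2 k s * xG H.toGood2 a t = xG H.toGood2 a t * xG H.toGood2 k s)
    (hkb : ∀ s t : F, xG H.toGood2 k s * xG H.toGood2 b t = xG H.toGood2 b t * xG H.toGood2 k s)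
    (hkp : TrR H C k p) : TrR H C k q := by
  intro s t
  have h3 := TrR_two H C ha hb h1 h2 hterms hka hkb s (-(δ : F) * t)
  have h4 := (hkp s ((ε : F) * (-(-(δ : F) * t)))).inv_right.mul_right h3
  rw [inv_mul_cancel_left] at h4
  have e : (δ : F) * (-(-(δ : F) * t)) = t := by rcases hδ with rfl | rfl <;> simp
  rwa [e] at h4

lemma TrR_two_p {k a b p q : ℕ} {ε δ : ℤ} (ha : a < D.nroots) (hb : b < D.nroots)
    (h1 : b ≠ a) (h2 : b ≠ D.neg a) (hterms : D.commTerms a b = [(p, ε, 1, 1), (q, δ, 1, 2)]) (hε : ε = 1 ∨ ε = -1)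
    (hka : ∀ s t : F, xG H.toGood2 k s * xG H.toGood2 a t = xG H.toGood2 a t * xG H.toGood2 k s)
    (hkb : ∀ s t : F, xG H.toGood2 k s * xG H.toGood2 b t = xG H.toGood2 b t * xG H.toGood2 k s)
    (hkq : TrR H C k q) : TrR H C k p := by
  intro s t
  have h3 := TrR_two H C ha hb h1 h2 hterms hka hkb s (-(ε : F) * t)
  have h4 := h3.mul_right (hkq s ((δ : F) * (-(-(ε : F) * t)))).inv_right
  rw [mul_inv_cancel_right] at h4
  have e : (ε : F) * (-(-(ε : F) * t)) = t := by rcases hε with rfl | rfl <;> simp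
  rwa [e] at h4

/-- single lifted root subgroup with a torus action -/
def YOK (k : ℕ) (Y : F → Γ) : Prop := (∀ t, σ (Y t) = xG H.toGood2 k t) ∧ (∀ t u, Y t * Y u = Y (t + u)) ∧
    ∀ γ < D.nroots, ∀ c : F, c ≠ 0 → ∀ t, C.cj (hG H.toGood2 γ c) (Y t) = Y (c ^ pr D γ k * t)

lemma exists_Y_torus {k : ℕ} (hk : k < D.nroots) (hx : ∃ γ < D.nroots, ∃ c : F, c ≠ 0 ∧ c ^ pr D γ k ≠ 1)
    (hself : TrR H C k k) : ∃ Y : F → Γ, YOK H C k Y := by
  obtain ⟨γ, hγ, c, hc, hne⟩ := hx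
  have h0 : c ^ pr D γ k - 1 ≠ 0 := sub_ne_zero.2 hne
  have hσ : ∀ t, ⁅hG H.toGood2 γ c, xG H.toGood2 k ((c ^ pr D γ k - 1)⁻¹ * t)⁆ = xG H.toGood2 k t := by
    intro t
    rw [commutatorElement_def, hG_xG H hγ hc hk, xG_inv H.toGood2 hk, ← xG_add H.toGood2 hk]
    congr 1
    rw [← sub_eq_add_neg, ← sub_one_mul, mul_inv_cancel_left₀ h0]
  refine ⟨fun t => C.cm (hG H.toGood2 γ c) (xG H.toGood2 k ((c ^ pr D γ k - 1)⁻¹ * t)), fun t => ?_, fun t u => ?_, ?_⟩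
  · show σ (C.cm _ _) = _
    rw [C.σ_cm, hσ]
  · show C.cm _ _ * C.cm _ _ = C.cm _ _
    rw [mul_add, xG_add H.toGood2 hk, C.cm_mul_right]
    congr 1
    exact ((hself _ u).fix (by rw [C.σ_cm, hσ])).symm
  · intro δ hδ d hd t
    show C.cj _ (C.cm _ _) = C.cm _ _
    rw [C.cj_cm, hG_xG H hδ hd hk, hG_comm H hδ hγ hd hc, mul_inv_cancel_right]
    congr 2
    ring

/-- bimultiplicativity of the commutator of a pair with central sum root -/
lemma cm_bi {k r s : ℕ} (hr : r < D.nroots) (hs : s < D.nroots)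
    (hcomm : ∀ u t : F, ∃ v : F, ⁅xG H.toGood2 s u, xG H.toGood2 r t⁆ = xG H.toGood2 k v)
    (hrk : TrR H C r k) (hsk : TrR H C s k) (hkk : TrR H C k k) :
    BiA fun u t : F => C.cm (xG H.toGood2 s u) (xG H.toGood2 r t) := by
  have hσ : ∀ u t : F, ∃ v : F, σ (C.cm (xG H.toGood2 s u) (xG H.toGood2 r t)) = xG H.toGood2 k v := by
    intro u t
    obtain ⟨v, hv⟩ := hcomm u t
    exact ⟨v, by rw [C.σ_cm, hv]⟩
  constructor
  · intro u u' t
    rw [xG_add H.toGood2 hs, C.cm_mul_left]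
    obtain ⟨v, hv⟩ := hσ u t
    obtain ⟨v', hv'⟩ := hσ u' t
    rw [(hsk u v').fix hv']
    exact (C.tr_iff' hv' hv).1 (hkk v' v)
  · intro u t t'
    rw [xG_add H.toGood2 hr, C.cm_mul_right]
    obtain ⟨v', hv'⟩ := hσ u t'
    rw [(hrk t v').fix hv']

variable {H C}

/-- bimultiplicative functions over three elements depend on the product -/
lemma BiA.three {f : F → F → Γ} (h : BiA f) (hF : ∀ t : F, t = 0 ∨ t = 1 ∨ t = -1) (t u : F) : f t u = f 1 (t * u) := by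
  rcases hF t with rfl | rfl | rfl
  · rw [zero_mul, h.zero_left, h.zero_right]
  · rw [one_mul]
  · rw [h.neg_left, neg_one_mul, h.neg_right]

lemma exists_Y_pair (hF : ∀ t : F, t = 0 ∨ t = 1 ∨ t = -1) {k r s : ℕ} {M : ℤ} (hr : r < D.nroots) (hs : s < D.nroots)
    (h1 : s ≠ r) (h2 : s ≠ D.neg r) (hterms : D.commTerms r s = [(k, M, 1, 1)]) (hM : (M : F) * M = 1)
    (hrk : TrR H C r k) (hsk : TrR H C s k) (hkk : TrR H C k k) :
    ∃ Y : F → Γ, YOK H C k Y ∧ ∀ t u : F, C.cm (xG H.toGood2 s (-u)) (xG H.toGood2 r (-t)) = Y ((M : F) * (-t) * u) := by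
  obtain ⟨hk, -, -, hvec⟩ := (H.pairOK hr hs h1 h2).terms (k, M, 1, 1) (by rw [hterms]; simp)
  simp only [Nat.cast_one, one_mul] at hk hvec
  have hcom : ∀ t u : F, ⁅xG H.toGood2 s (-u), xG H.toGood2 r (-t)⁆ = xG H.toGood2 k ((M : F) * (-t) * u) := by
    intro t u
    rw [comG H hr hs h1 h2]
    unfold ChevalleyDatum.commWord
    rw [hterms]
    simp [wG]
  have hB := cm_bi H C hr hs (k := k) (fun u t => ⟨_, by
    have := hcom (-t) (-u)
    rwa [_root_.neg_neg, _root_.neg_neg] at this⟩) hrk hsk hkk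
  refine ⟨fun v => C.cm (xG H.toGood2 s (-1)) (xG H.toGood2 r ((M : F) * v)), ⟨fun v => ?_, fun v w => ?_, ?_⟩, fun t u => ?_⟩
  · show σ (C.cm _ _) = _
    rw [C.σ_cm]
    have := hcom (-((M : F) * v)) 1
    rw [_root_.neg_neg] at this
    rw [this]
    congr 1
    linear_combination v * hM
  · show C.cm _ _ * C.cm _ _ = C.cm _ _
    rw [mul_add]
    exact (hB.r _ _ _).symm
  · intro γ hγ c hc v
    show C.cj _ (C.cm _ _) = C.cm _ _
    rw [C.cj_cm, hG_xG H hγ hc hs, hG_xG H hγ hc hr]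
    have e : pr D γ k = pr D γ r + pr D γ s := by
      rw [pr_lin H.toGood1 (r := γ) hk, pr_lin H.toGood1 (r := γ) hr, pr_lin H.toGood1 (r := γ) hs, ← Finset.sum_add_distrib]
      apply Finset.sum_congr rfl
      intro j hj
      rw [hvec j (Finset.mem_range.1 hj)]; ring
    have e1 := hB.three hF (c ^ pr D γ s * -1) (c ^ pr D γ r * ((M : F) * v))
    have e2 := hB.three hF (-1) ((M : F) * (c ^ pr D γ k * v))
    refine e1.trans (Eq.trans ?_ e2.symm)
    rw [e, zpow_add₀ hc]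
    congr 2
    ring
  · have e1 := hB.three hF (-u) (-t)
    have e2 := hB.three hF (-1) ((M : F) * ((M : F) * (-t) * u))
    refine e1.trans (Eq.trans ?_ e2.symm)
    congr 2
    linear_combination (-(t * u)) * hM

/-- (R2) for the reversed pair -/
lemma R2_symm {P : PX H F Γ} {k r s : ℕ} {M M' : ℤ} (hr : r < D.nroots) (hs : s < D.nroots)
    (h1 : s ≠ r) (h2 : s ≠ D.neg r) (ht : D.commTerms r s = [(k, M, 1, 1)]) (ht' : D.commTerms s r = [(k, M', 1, 1)])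
    (h : P.R2 r s) : P.R2 s r := by
  obtain ⟨hk, -⟩ := (H.pairOK hr hs h1 h2).terms (k, M, 1, 1) (by rw [ht]; simp)
  have h2' : r ≠ D.neg s := by
    intro e
    apply h2
    rw [e, neg_neg H.toGood1 hs]
  intro t u
  have h3 := P.θ_defect hs hr h1.symm h2' t u
  have h4 : P.com s r t u = (P.com r s u t)⁻¹ := by unfold PX.com; group
  unfold PX.defect at h3
  rw [h4, h u t] at h3 ⊢
  unfold ChevalleyDatum.commWord at h3 ⊢
  rw [ht, ht'] at h3 ⊢
  simp only [List.map_cons, List.map_nil, PX.wd_cons, PX.wd_nil, mul_one, pow_one] at h3 ⊢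
  rw [← P.x_neg hk] at h3 ⊢
  rw [map_mul, map_inv, mul_inv_eq_one] at h3
  congr 1
  refine PreSt.x_inj (H := H) hk ?_
  rw [← P.θ_coe hk, ← P.θ_coe hk, h3]

end

section B2

variable (H : Good chevB2) {F : Type*} [Field F] {Γ : Type*} [Group Γ] {σ : Γ →* ↥(chevB2.group F)} (C : CE σ)

theorem len2_B2 : Len2 chevB2 := len2_of_chk good1_B2 (by decide +kernel)

/-- data for the self-pairing of a long root: `(k, a, b, p)` -/
def longD : List (ℕ × ℕ × ℕ × ℕ) := [(0, 3, 2, 1), (3, 0, 5, 1), (4, 0, 6, 2), (7, 3, 6, 5)]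

/-- data for short roots: `(k, a, b, q)` -/
def shortD : List (ℕ × ℕ × ℕ × ℕ) := [(1, 3, 2, 0), (2, 0, 6, 4), (5, 3, 6, 7), (6, 4, 5, 7)]

theorem chk_long : (longD.all fun d => cpB chevB2 d.1 d.2.1 && (cpB chevB2 d.1 d.2.2.1 && (cpB chevB2 d.1 d.2.2.2 &&
    (torB chevB2 1 d.1 d.2.2.2 && (decide (chevB2.commTerms d.2.1 d.2.2.1 = [(d.2.2.2, 1, 1, 1), (d.1, 1, 1, 2)]) ||
    (decide (chevB2.commTerms d.2.1 d.2.2.1 = [(d.2.2.2, -1, 1, 1), (d.1, 1, 1, 2)]) ||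
    (decide (chevB2.commTerms d.2.1 d.2.2.1 = [(d.2.2.2, 1, 1, 1), (d.1, -1, 1, 2)]) ||
    decide (chevB2.commTerms d.2.1 d.2.2.1 = [(d.2.2.2, -1, 1, 1), (d.1, -1, 1, 2)]))))))) && decide (d.1 < 8 ∧ d.2.1 < 8 ∧ d.2.2.1 < 8 ∧
    d.2.2.1 ≠ d.2.1 ∧ d.2.2.1 ≠ chevB2.neg d.2.1)) = true := by decide +kernel

lemma TrR_cp {D : ChevalleyDatum} (H : Good D) {F : Type*} [Field F] {Γ : Type*} [Group Γ] {σ : Γ →* ↥(D.group F)} (C : CE σ)
    {M : ℕ} (hM : BigF F M) {r s : ℕ} (h : CP D r s) (ht : torB D M r s = true) : TrR H C r s := by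
  obtain ⟨γ, hγ, c, hc, ⟨h2, h3⟩ | ⟨h2, h3⟩⟩ := torB_F H hM h.1 h.2.1 ht
  · exact TrR_torus H C h hγ hc h2 h3
  · exact TrR_torus' H C h hγ hc h2 h3

include H in
/-- self-pairings of long roots -/
lemma self_long (hM : BigF F 1) {d : ℕ × ℕ × ℕ × ℕ} (hd : d ∈ longD) : TrR H C d.1 d.1 := by
  have h := List.all_eq_true.1 chk_long d hd
  simp only [Bool.and_eq_true, Bool.or_eq_true, decide_eq_true_eq] at h
  obtain ⟨⟨h1, h2, h3, h4, h5⟩, h6, h7, h8, h9, h10⟩ := h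
  have hp : d.2.2.2 < 8 := by
    have : d = (0, 3, 2, 1) ∨ d = (3, 0, 5, 1) ∨ d = (4, 0, 6, 2) ∨ d = (7, 3, 6, 5) := by simpa [longD] using hd
    rcases this with rfl | rfl | rfl | rfl <;> norm_num
  have hkp := TrR_cp H C hM (CP_of_chk H.toGood1 (show d.1 < chevB2.nroots from h6) (show d.2.2.2 < chevB2.nroots from hp) h3) h4
  have ka := fun s t : F => xG_comm' H (CP_of_chk H.toGood1 (show d.1 < chevB2.nroots from h6) (show d.2.1 < chevB2.nroots from h7) h1) s t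
  have kb := fun s t : F => xG_comm' H (CP_of_chk H.toGood1 (show d.1 < chevB2.nroots from h6) (show d.2.2.1 < chevB2.nroots from h8) h2) s t
  rcases h5 with h5 | h5 | h5 | h5
  · exact TrR_two_q H C h7 h8 h9 h10 h5 (Or.inl rfl) ka kb hkp
  · exact TrR_two_q H C h7 h8 h9 h10 h5 (Or.inl rfl) ka kb hkp
  · exact TrR_two_q H C h7 h8 h9 h10 h5 (Or.inr rfl) ka kb hkp
  · exact TrR_two_q H C h7 h8 h9 h10 h5 (Or.inr rfl) ka kb hkp

theorem chk_short : (shortD.all fun d => cpB chevB2 d.1 d.2.1 && (cpB chevB2 d.1 d.2.2.2 &&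
    (torB chevB2 1 d.1 d.2.2.2 && ((decide (chevB2.commTerms d.2.1 d.2.2.1 = [(d.1, 1, 1, 1), (d.2.2.2, 1, 1, 2)]) ||
    (decide (chevB2.commTerms d.2.1 d.2.2.1 = [(d.1, -1, 1, 1), (d.2.2.2, 1, 1, 2)]) ||
    (decide (chevB2.commTerms d.2.1 d.2.2.1 = [(d.1, 1, 1, 1), (d.2.2.2, -1, 1, 2)]) ||
    decide (chevB2.commTerms d.2.1 d.2.2.1 = [(d.1, -1, 1, 1), (d.2.2.2, -1, 1, 2)])))) &&
    (decide (chevB2.commTerms d.1 d.2.2.1 = [(d.2.2.2, 2, 1, 1)]) || decide (chevB2.commTerms d.1 d.2.2.1 = [(d.2.2.2, -2, 1, 1)]))))) &&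
    decide (d.1 < 8 ∧ d.2.1 < 8 ∧ d.2.2.1 < 8 ∧
    d.2.2.1 ≠ d.2.1 ∧ d.2.2.1 ≠ chevB2.neg d.2.1 ∧ d.2.2.1 ≠ d.1 ∧ d.2.2.1 ≠ chevB2.neg d.1)) = true := by decide +kernel

include H in
/-- self-pairings of short roots in characteristic two -/
lemma self_short2 (hM : BigF F 1) (h2 : (2 : F) = 0) {d : ℕ × ℕ × ℕ × ℕ} (hd : d ∈ shortD) : TrR H C d.1 d.1 := by
  have h := List.all_eq_true.1 chk_short d hd
  simp only [Bool.and_eq_true, Bool.or_eq_true, decide_eq_true_eq] at h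
  obtain ⟨⟨h1, h3, h4, h5, h12⟩, h6, h7, h8, h9, h10, h13, h14⟩ := h
  have hp : d.2.2.2 < 8 := by
    have : d = (1, 3, 2, 0) ∨ d = (2, 0, 6, 4) ∨ d = (5, 3, 6, 7) ∨ d = (6, 4, 5, 7) := by simpa [shortD] using hd
    rcases this with rfl | rfl | rfl | rfl <;> norm_num
  have hkp := TrR_cp H C hM (CP_of_chk H.toGood1 (show d.1 < chevB2.nroots from h6) (show d.2.2.2 < chevB2.nroots from hp) h3) h4
  have ka := fun s t : F => xG_comm' H (CP_of_chk H.toGood1 (show d.1 < chevB2.nroots from h6) (show d.2.1 < chevB2.nroots from h7) h1) s t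
  have kb : ∀ s t : F, xG H.toGood2 d.1 s * xG H.toGood2 d.2.2.1 t = xG H.toGood2 d.2.2.1 t * xG H.toGood2 d.1 s := by
    intro s t
    have h15 := comG (F := F) H (show d.1 < chevB2.nroots from h6) (show d.2.2.1 < chevB2.nroots from h8) h13 h14 (-s) (-t)
    have h16 : wG H.toGood2 (chevB2.commWord F d.1 d.2.2.1 (-s) (-t)) = 1 := by
      unfold ChevalleyDatum.commWord
      rcases h12 with h12 | h12 <;> rw [h12] <;> simp [wG, h2, xG_zero]
    rw [h16, _root_.neg_neg, _root_.neg_neg, commutatorElement_eq_one_iff_mul_comm] at h15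
    exact h15.symm
  rcases h5 with h5 | h5 | h5 | h5
  · exact TrR_two_p H C h7 h8 h9 h10 h5 (Or.inl rfl) ka kb hkp
  · exact TrR_two_p H C h7 h8 h9 h10 h5 (Or.inr rfl) ka kb hkp
  · exact TrR_two_p H C h7 h8 h9 h10 h5 (Or.inl rfl) ka kb hkp
  · exact TrR_two_p H C h7 h8 h9 h10 h5 (Or.inr rfl) ka kb hkp

lemma card_le_of {F : Type*} {n : ℕ} (h : ¬ ∃ s : Finset F, n < s.card) : Finite F ∧ Nat.card F ≤ n := by
  have hfin : Finite F := by
    by_contra hinf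
    rw [not_finite_iff_infinite] at hinf
    obtain ⟨s, hs⟩ := Infinite.exists_subset_card_eq F (n + 1)
    exact h ⟨s, by omega⟩
  refine ⟨hfin, ?_⟩
  have := Fintype.ofFinite F
  by_contra hcon
  push Not at hcon
  exact h ⟨Finset.univ, by rwa [Finset.card_univ, ← Nat.card_eq_fintype_card]⟩

lemma two_eq_zero_of {F : Type*} [Field F] (h3 : ∃ s : Finset F, 3 < s.card) (h4 : ¬ ∃ s : Finset F, 4 < s.card) : (2 : F) = 0 := by
  obtain ⟨hfin, hc⟩ := card_le_of h4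
  have := Fintype.ofFinite F
  obtain ⟨s, hs⟩ := h3
  have h5 : s.card ≤ Fintype.card F := Finset.card_le_univ s
  rw [Nat.card_eq_fintype_card] at hc
  have h6 : Fintype.card F = 4 := by omega
  have h7 := FiniteField.cast_card_eq_zero F
  rw [h6] at h7
  have h8 : (2 : F) * 2 = 0 := by
    have : ((4 : ℕ) : F) = 2 * 2 := by norm_num
    rw [← this]; exact h7
  exact (mul_self_eq_zero.1 h8)

theorem chkB2 : (allP chevB2 (indB chevB2) && (allN 8 (torX chevB2 2) && (allP chevB2 (torB chevB2 2) &&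
    (allN 8 fun k => (longD.any fun d => Nat.beq d.1 k) || ((shortD.any fun d => Nat.beq d.1 k) && (torX chevB2 1 k && cpB chevB2 k k)))))) = true := by
  decide +kernel

include C in
theorem exists_pre_B2_of4 (hF : ∃ s : Finset F, 3 < s.card) : ∃ P : PreSt H F Γ, P.θ = (chevB2.group F).subtype.comp σ := by
  have hM : BigF F 2 := BigF.of_finset hF
  have hM1 : BigF F 1 := fun m h1 h2 => hM m h1 (h2.trans (by norm_num))
  have hc := chkB2
  rw [Bool.and_eq_true, Bool.and_eq_true, Bool.and_eq_true] at hc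
  obtain ⟨ha, hb, hc, hd⟩ := hc
  refine exists_pre_T C (fun r hr s hs h2 h3 => indB_iff H hr hs (allP_imp H ha hr hs h2 h3))
    (fun k hk => torX_F H hM hk (allN_imp hb hk)) ?_
    (fun r hr s hs h2 h3 => Or.inl (torB_F H hM hr hs (allP_imp H hc hr hs h2 h3)))
  intro k hk
  have hk' := allN_imp hd hk
  rw [Bool.or_eq_true, Bool.and_eq_true, Bool.and_eq_true, List.any_eq_true, List.any_eq_true] at hk'
  rcases hk' with ⟨d, hd, he⟩ | ⟨⟨d, hd, he⟩, h1, h2⟩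
  · rw [← Nat.eq_of_beq_eq_true he]
    exact self_long H C hM1 hd
  · by_cases h5 : ∃ s : Finset F, 4 < s.card
    · obtain ⟨γ, hγ, h3, h4⟩ := torX_iff H hk h1
      obtain ⟨c, d, hc, hd, hcd, hq⟩ := exists_full h5
      exact TrR_full H C (CP_of_chk H.toGood1 hk hk h2) hγ (by omega) hc hd hcd hq
    · rw [← Nat.eq_of_beq_eq_true he]
      exact self_short2 H C hM1 (two_eq_zero_of hF h5) hd

/-- the decompositions of the long roots: `(k, r, s)` -/
def pairD : List (ℕ × ℕ × ℕ) := [(0, 1, 2), (3, 1, 5), (4, 2, 6), (7, 5, 6)]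

theorem chk_pair : (pairD.all fun d => (decide (chevB2.commTerms d.2.1 d.2.2 = [(d.1, 2, 1, 1)] ∧
    chevB2.commTerms d.2.2 d.2.1 = [(d.1, -2, 1, 1)]) ||
    decide (chevB2.commTerms d.2.1 d.2.2 = [(d.1, -2, 1, 1)] ∧ chevB2.commTerms d.2.2 d.2.1 = [(d.1, 2, 1, 1)])) &&
    (cpB chevB2 d.2.1 d.1 && (cpB chevB2 d.2.2 d.1 &&
    decide (d.1 < 8 ∧ d.2.1 < 8 ∧ d.2.2 < 8 ∧ d.2.2 ≠ d.2.1 ∧ d.2.2 ≠ chevB2.neg d.2.1)))) = true := by decide +kernel

theorem chkQ_B2 : chkQ chevB2 1 [] [[], [0]] = true := by decide +kernel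

theorem chkB3 : ((allN 8 fun k => cpB chevB2 k k && (torX chevB2 1 k || (pairD.any fun d => Nat.beq d.1 k))) &&
    (allP chevB2 fun r s => torB chevB2 1 r s || (cpB chevB2 r s || ((pairD.any fun d => Nat.beq d.2.1 r && Nat.beq d.2.2 s) ||
    (pairD.any fun d => Nat.beq d.2.1 s && Nat.beq d.2.2 r))))) = true := by decide +kernel

include C in
theorem exists_pre_B2_3 (h3 : (3 : F) = 0) (hF : ∀ t : F, t = 0 ∨ t = 1 ∨ t = -1) (hs : ∃ s : Finset F, 2 < s.card) :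
    ∃ P : PreSt H F Γ, P.θ = (chevB2.group F).subtype.comp σ := by
  have hM : BigF F 1 := BigF.of_finset hs
  have htr : ∀ {r s : ℕ}, CP chevB2 r s → TrR H C r s := fun h => trR_of_chk C len2_B2 hM (Or.inr ⟨h3, hF⟩) chkQ_B2 h
  have hc := chkB3
  rw [Bool.and_eq_true] at hc
  obtain ⟨hc1, hc2⟩ := hc
  have hYp : ∀ d ∈ pairD, ∃ Y : F → Γ, YOK H C d.1 Y ∧ ∃ M : ℤ, chevB2.commTerms d.2.1 d.2.2 = [(d.1, M, 1, 1)] ∧
      ∀ t u : F, C.cm (xG H.toGood2 d.2.2 (-u)) (xG H.toGood2 d.2.1 (-t)) = Y ((M : F) * (-t) * u) := by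
    intro d hd
    have h := List.all_eq_true.1 chk_pair d hd
    simp only [Bool.and_eq_true, Bool.or_eq_true, decide_eq_true_eq] at h
    obtain ⟨h1, h4, h5, h6, h7, h8, h9, h10⟩ := h
    have k1 := htr (CP_of_chk H.toGood1 (show d.2.1 < chevB2.nroots from h7) (show d.1 < chevB2.nroots from h6) h4)
    have k2 := htr (CP_of_chk H.toGood1 (show d.2.2 < chevB2.nroots from h8) (show d.1 < chevB2.nroots from h6) h5)
    have h11 := allN_imp hc1 h6
    rw [Bool.and_eq_true] at h11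
    have k3 := htr (CP_of_chk H.toGood1 (show d.1 < chevB2.nroots from h6) (show d.1 < chevB2.nroots from h6) h11.1)
    rcases h1 with ⟨h1, -⟩ | ⟨h1, -⟩
    · obtain ⟨Y, hY, hY'⟩ := exists_Y_pair (C := C) hF (show d.2.1 < chevB2.nroots from h7) (show d.2.2 < chevB2.nroots from h8)
        h9 h10 h1 (by push_cast; linear_combination h3) k1 k2 k3
      exact ⟨Y, hY, _, h1, hY'⟩
    · obtain ⟨Y, hY, hY'⟩ := exists_Y_pair (C := C) hF (show d.2.1 < chevB2.nroots from h7) (show d.2.2 < chevB2.nroots from h8)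
        h9 h10 h1 (by push_cast; linear_combination h3) k1 k2 k3
      exact ⟨Y, hY, _, h1, hY'⟩
  have hmem : ∀ d ∈ pairD, ∀ d' ∈ pairD, d.1 = d'.1 → d = d' := by decide
  have h1 : ∀ k : ℕ, ∃ Y : F → Γ, k < 8 → YOK H C k Y ∧ ∀ d ∈ pairD, d.1 = k → ∃ M : ℤ,
      chevB2.commTerms d.2.1 d.2.2 = [(d.1, M, 1, 1)] ∧
      ∀ t u : F, C.cm (xG H.toGood2 d.2.2 (-u)) (xG H.toGood2 d.2.1 (-t)) = Y ((M : F) * (-t) * u) := by
    intro k
    by_cases hk : k < 8
    · by_cases hd : ∃ d ∈ pairD, d.1 = k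
      · obtain ⟨d, hd, rfl⟩ := hd
        obtain ⟨Y, hY, M, hM, hY'⟩ := hYp d hd
        refine ⟨Y, fun _ => ⟨hY, fun d' hd' he => ?_⟩⟩
        rw [hmem d' hd' d hd he]
        exact ⟨M, hM, hY'⟩
      · have h4 := allN_imp hc1 hk
        rw [Bool.and_eq_true, Bool.or_eq_true, List.any_eq_true] at h4
        obtain ⟨h4, h5 | ⟨d, hd', he⟩⟩ := h4
        · obtain ⟨Y, hY⟩ := exists_Y_torus H C (show k < chevB2.nroots from hk) (torX_F H hM (show k < chevB2.nroots from hk) h5)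
            (htr (CP_of_chk H.toGood1 (show k < chevB2.nroots from hk) (show k < chevB2.nroots from hk) h4))
          exact ⟨Y, fun _ => ⟨hY, fun d' hd' he => absurd ⟨d', hd', he⟩ hd⟩⟩
        · exact absurd ⟨d, hd', Nat.eq_of_beq_eq_true he⟩ hd
    · exact ⟨fun _ => 1, fun h => absurd h hk⟩
  choose X hX using h1
  have hθx : ∀ {r : ℕ}, r < chevB2.nroots → ∀ t : F, ((chevB2.group F).subtype.comp σ) (X r t) = xU H.toGood2 r t := by
    intro r hr t
    show ((σ (X r t) : ↥(chevB2.group F)) : GL chevB2.Idx F) = _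
    rw [(hX r hr).1.1]; rfl
  let P : PX H F Γ := ⟨X, fun {r} hr t u => ((hX r hr).1.2.1 t u), (chevB2.group F).subtype.comp σ, hθx⟩
  have hker : P.θ.ker ≤ Subgroup.center Γ := by
    intro x hx
    have h1 : (chevB2.group F).subtype (σ x) = 1 := hx
    exact C.2 (Subtype.ext h1)
  have hR2 : ∀ d ∈ pairD, P.R2 d.2.1 d.2.2 := by
    intro d hd
    have h := List.all_eq_true.1 chk_pair d hd
    simp only [Bool.and_eq_true, Bool.or_eq_true, decide_eq_true_eq] at h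
    obtain ⟨-, -, -, h6, h7, h8, -, -⟩ := h
    obtain ⟨M, hM, hY'⟩ := (hX d.1 h6).2 d hd rfl
    intro t u
    have e1 : P.com d.2.1 d.2.2 t u = C.cm (xG H.toGood2 d.2.2 (-u)) (xG H.toGood2 d.2.1 (-t)) := by
      have e2 : P.com d.2.1 d.2.2 t u = ⁅P.x d.2.2 (-u), P.x d.2.1 (-t)⁆ := by
        rw [PX.com, P.x_neg (show d.2.2 < chevB2.nroots from h8), P.x_neg (show d.2.1 < chevB2.nroots from h7),
          commutatorElement_def, inv_inv, inv_inv]
      rw [e2]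
      exact C.cm_eq ((hX d.2.2 h8).1.1 _) ((hX d.2.1 h7).1.1 _)
    rw [e1, hY']
    unfold ChevalleyDatum.commWord
    rw [hM]
    simp only [List.map_cons, List.map_nil, PX.wd_cons, PX.wd_nil, mul_one, pow_one]
    rfl
  have hkill : ∀ r < chevB2.nroots, ∀ s < chevB2.nroots, s ≠ r → s ≠ chevB2.neg r → P.Kill r s := by
    intro r hr s hs h1 h2
    have h4 := allP_imp H hc2 hr hs h1 h2
    rw [Bool.or_eq_true, Bool.or_eq_true, Bool.or_eq_true, List.any_eq_true, List.any_eq_true] at h4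
    rcases h4 with h4 | h4 | ⟨d, hd, h4⟩ | ⟨d, hd, h4⟩
    · obtain ⟨γ, hγ, c, hc, h5⟩ := torB_F H hM hr hs h4
      refine PX.kill_torus hker hr hs h1 h2 (g := C.y (hG H.toGood2 γ c)) hc (fun k hk t => ?_) h5
      rw [← C.cj_apply (C.σ_y _)]
      exact (hX k hk).1.2.2 γ hγ c hc t
    · have h5 := CP_of_chk H.toGood1 hr hs h4
      refine PX.kill_of_comm h5.2.2.2 fun t u => ?_
      exact (C.tr_iff' ((hX r hr).1.1 t) ((hX s hs).1.1 u)).1 (htr h5 t u)
    · rw [Bool.and_eq_true] at h4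
      have e1 := Nat.eq_of_beq_eq_true h4.1
      have e2 := Nat.eq_of_beq_eq_true h4.2
      subst e1; subst e2
      intro _ _ t u
      unfold PX.defect
      rw [hR2 d hd t u, mul_inv_cancel]
    · rw [Bool.and_eq_true] at h4
      have e1 := Nat.eq_of_beq_eq_true h4.1
      have e2 := Nat.eq_of_beq_eq_true h4.2
      subst e1; subst e2
      have h := List.all_eq_true.1 chk_pair d hd
      simp only [Bool.and_eq_true, Bool.or_eq_true, decide_eq_true_eq] at h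
      obtain ⟨h5, -, -, h6, h7, h8, h9, h10⟩ := h
      have h11 : P.R2 d.2.2 d.2.1 := by
        rcases h5 with h5 | h5
        · exact R2_symm (show d.2.1 < chevB2.nroots from h7) (show d.2.2 < chevB2.nroots from h8) h9 h10 h5.1 h5.2 (hR2 d hd)
        · exact R2_symm (show d.2.1 < chevB2.nroots from h7) (show d.2.2 < chevB2.nroots from h8) h9 h10 h5.1 h5.2 (hR2 d hd)
      intro _ _ t u
      unfold PX.defect
      rw [h11 t u, mul_inv_cancel]
  refine ⟨{ x := P.x, add := P.add, comm := ?_, θ := P.θ, θ_x := P.θ_x }, rfl⟩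
  intro r s hr hs h1 h2 t u
  have ha := chkB2
  rw [Bool.and_eq_true] at ha
  obtain ⟨κ, K, hr0, hs0⟩ := exists_kf H hr hs (indB_iff H hr hs (allP_imp H ha.1 hr hs h1 h2))
  exact P.R2_pos hker K hkill r hr s hs hr0 hs0 h1 t u

include C in
theorem exists_pre_B2 (hF : ∃ s : Finset F, 2 < s.card) : ∃ P : PreSt H F Γ, P.θ = (chevB2.group F).subtype.comp σ := by
  by_cases h4 : ∃ s : Finset F, 3 < s.card
  · exact exists_pre_B2_of4 H C h4
  · obtain ⟨h3, hall⟩ := three_of hF h4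
    exact exists_pre_B2_3 H C h3 hall hF

end B2

end Cfsg.Agent.Mult
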