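import Cfsg.Agent.Mult.Cover

set_option autoImplicit false
set_option maxRecDepth 100000

/-!
Lifted systems for central extensions whose kernel has no p-torsion; projective representations.
-/

namespace Cfsg.Agent.Mult

open Cfsg Cfsg.Lie Cfsg.Agent.Chev Cfsg.Agent.Steinb Cfsg.Agent.ChevTw Cfsg.Agent.ChevGrp
open scoped commutatorElement

lemma BiA.pow {F Γ : Type*} [Field F] [Group Γ] {f : F → F → Γ} (h : BiA f) (n : ℕ) (t u : F) : f ((n : F) * t) u = f t u ^ n := by
  induction n with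
  | zero => rw [Nat.cast_zero, zero_mul, h.zero_left, pow_zero]
  | succ n ih => rw [Nat.cast_succ, add_mul, one_mul, h.l, ih, pow_succ]

section

variable {D : ChevalleyDatum} {H : Good D} {F : Type*} [Field F] {Γ : Type*} [Group Γ] {σ : Γ →* ↥(D.group F)} (C : CE σ)
  {p : ℕ} (hp : (p : F) = 0) (htf : ∀ z : Γ, σ z = 1 → z ^ p = 1 → z = 1)
include hp htf

lemma TrR_tf {r s : ℕ} (h : CP D r s) : TrR H C r s := by
  intro t u
  have h1 := (cm_xG_bi H C h).pow p t u
  rw [hp, zero_mul, (cm_xG_bi H C h).zero_left] at h1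
  apply htf
  · rw [C.σ_cm, commutatorElement_eq_one_iff_mul_comm]
    exact xG_comm' H h t u
  · exact h1.symm

include C in
theorem exists_pre_tf (hind : ∀ r < D.nroots, ∀ s < D.nroots, s ≠ r → s ≠ D.neg r → pr D r s * pr D s r < 4)
    (hcp : ∀ k < D.nroots, CP D k k)
    (hx : ∀ k < D.nroots, (∃ γ < D.nroots, ∃ c : F, c ≠ 0 ∧ c ^ pr D γ k ≠ 1) ∨ ∃ a b, Dec D k a b) :
    ∃ P : PreSt H F Γ, P.θ = (D.group F).subtype.comp σ := by
  have h1 : ∀ k : ℕ, ∃ Y : F → Γ, k < D.nroots → (∀ t, σ (Y t) = xG H.toGood2 k t) ∧ (∀ t u, Y t * Y u = Y (t + u)) := by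
    intro k
    by_cases hk : k < D.nroots
    · rcases hx k hk with hx | ⟨a, b, hab⟩
      · obtain ⟨Y, hY⟩ := exists_Y_torus H C hk hx (TrR_tf C hp htf (hcp k hk))
        exact ⟨Y, fun _ => ⟨hY.1, hY.2.1⟩⟩
      · obtain ⟨ε, hε, he⟩ := comm_dec (F := F) H hab
        have e1 : ∀ t : F, ε * (ε * t * 1) = t := by intro t; rcases hε with rfl | rfl <;> ring
        have hσ : ∀ t : F, σ (C.cm (xG H.toGood2 a (ε * t)) (xG H.toGood2 b 1)) = xG H.toGood2 k t := by
          intro t
          rw [C.σ_cm, he, e1]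
        refine ⟨fun t => C.cm (xG H.toGood2 a (ε * t)) (xG H.toGood2 b 1), fun _ => ⟨hσ, fun t u => ?_⟩⟩
        show C.cm _ _ * C.cm _ _ = C.cm _ _
        rw [add_comm t u, mul_add, xG_add H.toGood2 hab.ha, C.cm_mul_left]
        congr 1
        exact ((TrR_tf (H := H) C hp htf hab.ca (ε * u) t).fix (hσ t)).symm
    · exact ⟨fun _ => 1, fun h => absurd h hk⟩
  choose X hX using h1
  have hθx : ∀ {r : ℕ}, r < D.nroots → ∀ t : F, ((D.group F).subtype.comp σ) (X r t) = xU H.toGood2 r t := by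
    intro r hr t
    show ((σ (X r t) : ↥(D.group F)) : GL D.Idx F) = _
    rw [(hX r hr).1]; rfl
  let P : PX H F Γ := ⟨X, fun {r} hr t u => ((hX r hr).2 t u), (D.group F).subtype.comp σ, hθx⟩
  have hker' : ∀ x, P.θ x = 1 → σ x = 1 := by
    intro x hx
    have h1 : (D.group F).subtype (σ x) = 1 := hx
    exact Subtype.ext h1
  have hker : P.θ.ker ≤ Subgroup.center Γ := fun x hx => C.2 (hker' x hx)
  have hkill : ∀ r < D.nroots, ∀ s < D.nroots, s ≠ r → s ≠ D.neg r → P.Kill r s := by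
    intro r hr s hs h1 h2 hl hr' t u
    have hb : BiA (P.defect r s) := ⟨hl, hr'⟩
    apply htf _ (hker' _ (P.θ_defect hr hs h1 h2 t u))
    rw [← hb.pow p t u, hp, zero_mul, hb.zero_left]
  refine ⟨{ x := P.x, add := P.add, comm := ?_, θ := P.θ, θ_x := P.θ_x }, rfl⟩
  intro r s hr hs h1 h2 t u
  obtain ⟨κ, K, hr0, hs0⟩ := exists_kf H hr hs (hind r hr s hs h1 h2)
  exact P.R2_pos hker K hkill r hr s hs hr0 hs0 h1 t u

end

/-- all roots have decompositions -/
def chkDec (D : ChevalleyDatum) (dec : List (ℕ × ℕ)) : Bool :=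
  allN D.nroots fun k => domd D k || dec.any fun p => decOK D k p.1 p.2

lemma dec_of_chk {D : ChevalleyDatum} (H : Good D) (hl : Len2 D) {dec : List (ℕ × ℕ)} (h : chkDec D dec = true) :
    ∀ k < D.nroots, ∃ a b, Dec D k a b := by
  apply root_induction (P := fun k => ∃ a b, Dec D k a b) H.toGood1
  · rintro i hi r hr ⟨a, b, h⟩
    have := Dec_w H.toGood2 hl hi h
    rw [H.w_w i hi r hr] at this
    exact ⟨_, _, this⟩
  · intro r hr hd
    have h1 := allN_imp h hr
    rw [hd, Bool.false_or, List.any_eq_true] at h1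
    obtain ⟨p, -, hp⟩ := h1
    exact ⟨_, _, dec_of_ok H hr hp⟩

theorem chkDec_D4 : chkDec chevD4 [(14, 22)] = true := by decide +kernel
theorem chkDec_F4 : chkDec chevF4 [(33, 40), (24, 46)] = true := by decide +kernel

/-- lifted systems for kernels without `p`-torsion, all types -/
theorem exists_pre_tf_all {D : ChevalleyDatum} (hD : D ∈ data) {F : Type*} [Field F]
    (hF : D ∈ [chevB2, chevG2] → ∃ s : Finset F, 2 < s.card)
    {Γ : Type*} [Group Γ] {σ : Γ →* ↥(D.group F)} (C : CE σ)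
    {p : ℕ} (hp : (p : F) = 0) (htf : ∀ z : Γ, σ z = 1 → z ^ p = 1 → z = 1) :
    ∃ P : PreSt (good_of_mem hD) F Γ, P.θ = (D.group F).subtype.comp σ := by
  have hD' := hD
  simp only [data, List.mem_cons, List.not_mem_nil, or_false] at hD'
  rcases hD' with rfl | rfl | rfl | rfl | rfl | rfl | rfl
  · have hs := hF (by simp)
    have hc := chkT_G2
    unfold chkT at hc
    rw [Bool.and_eq_true, Bool.and_eq_true] at hc
    set H := good_of_mem hD
    exact exists_pre_tf C hp htf (fun r hr s hs h2 h3 => indB_iff H hr hs (allP_imp H hc.1 hr hs h2 h3))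
      (fun k hk => CP_of_chk H.toGood1 hk hk (allN_imp chkCP_G2 hk))
      (fun k hk => Or.inl (torX_F H (BigF.of_finset hs) hk (allN_imp hc.2.1 hk)))
  · exact exists_pre_B2 _ C (hF (by simp))
  · have hc := chkT_D4
    unfold chkT at hc
    rw [Bool.and_eq_true, Bool.and_eq_true] at hc
    set H := good_of_mem hD
    exact exists_pre_tf C hp htf (fun r hr s hs h2 h3 => indB_iff H hr hs (allP_imp H hc.1 hr hs h2 h3))
      (fun k hk => CP_of_chk H.toGood1 hk hk (allN_imp chkCP_D4 hk))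
      (fun k hk => Or.inr (dec_of_chk H len2_D4 chkDec_D4 k hk))
  · have hc := chkT_F4
    unfold chkT at hc
    rw [Bool.and_eq_true, Bool.and_eq_true] at hc
    set H := good_of_mem hD
    exact exists_pre_tf C hp htf (fun r hr s hs h2 h3 => indB_iff H hr hs (allP_imp H hc.1 hr hs h2 h3))
      (fun k hk => CP_of_chk H.toGood1 hk hk (allN_imp chkCP_F4 hk))
      (fun k hk => Or.inr (dec_of_chk H len2_F4 chkDec_F4 k hk))
  · exact slData_E6.exists_pre _ C
  · exact slData_E7.exists_pre _ C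
  · exact slData_E8.exists_pre _ C

/-- the centre of `GL_n` has no `p`-torsion in characteristic `p` -/
lemma center_tf {n : ℕ} {L : Type*} [Field L] {p : ℕ} [Fact p.Prime] [CharP L p] {z : GL (Fin n) L} (hz : z ∈ Subgroup.center (GL (Fin n) L))
    (h : z ^ p = 1) : z = 1 := by
  rw [Matrix.GeneralLinearGroup.mem_center_iff_val_mem_range_scalar] at hz
  obtain ⟨a, ha⟩ := hz
  have h1 : (z : Matrix (Fin n) (Fin n) L) ^ p = 1 := by
    rw [← Units.val_pow_eq_pow_val, h, Units.val_one]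
  rw [← ha, ← map_pow] at h1
  apply Units.ext
  rw [← ha, Units.val_one]
  rcases isEmpty_or_nonempty (Fin n) with hn | hn
  · exact Subsingleton.elim _ _
  · have h2 : a ^ p = 1 := by
      have : Matrix.scalar (Fin n) (a ^ p) = Matrix.scalar (Fin n) (1 : L) := by rw [h1, map_one]
      exact Matrix.scalar_inj.1 this
    have h3 : (a - 1) ^ p = 0 := by rw [sub_pow_char, h2, one_pow, sub_self]
    have h4 : a = 1 := sub_eq_zero.1 (pow_eq_zero_iff (Fact.out (p := p.Prime)).ne_zero |>.1 h3)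
    rw [h4, map_one]

/-- lifting of projective representations, torsion-free kernels -/
theorem proj_lift_tf {D : ChevalleyDatum} (hD : D ∈ data) {K : Type*} [Field K]
    (hF : D ∈ [chevB2, chevG2] → ∃ s : Finset K, 2 < s.card) {p : ℕ} (hp : (p : K) = 0)
    (θ : D.SteinbergCover K →* ↥(D.group K))
    (hθ : ∀ (r : ℕ) (t : K), r < D.nroots → ((θ (D.scGen K r t) : GL D.Idx K) : Matrix D.Idx D.Idx K) = D.x K r t)
    {G₁ E : Type*} [Group G₁] [Group E] (π : E →* G₁) (hπ : Function.Surjective π) (hc : π.ker ≤ Subgroup.center E)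
    (htf : ∀ z ∈ π.ker, z ^ p = 1 → z = 1) (φ : ↥(D.group K) →* G₁) :
    ∃! ψ : D.SteinbergCover K →* E, π.comp ψ = φ.comp θ := by
  set H := good_of_mem hD
  -- uniqueness
  have huniq : ∀ ψ ψ' : D.SteinbergCover K →* E, π.comp ψ = φ.comp θ → π.comp ψ' = φ.comp θ → ψ = ψ' := by
    intro ψ ψ' h h'
    refine hom_ext_gen (scP_gen H K) fun r hr t => ?_
    have h1 : ∀ ψ : D.SteinbergCover K →* E, ψ ((scP H K).x r t) ^ p = 1 := by
      intro ψ
      rw [← map_pow]
      have h2 : ∀ n : ℕ, ((scP H K).x r t) ^ n = (scP H K).x r ((n : K) * t) := by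
        intro n
        induction n with
        | zero => rw [pow_zero, Nat.cast_zero, zero_mul, (scP H K).x_zero hr]
        | succ n ih => rw [pow_succ, ih, (scP H K).add hr, Nat.cast_succ, add_mul, one_mul]
      rw [h2, hp, zero_mul, (scP H K).x_zero hr, map_one]
    set a := ψ ((scP H K).x r t) with ha
    set b := ψ' ((scP H K).x r t) with hb
    have h2 : a⁻¹ * b ∈ π.ker := by
      rw [MonoidHom.mem_ker, map_mul, map_inv]
      have e1 := DFunLike.congr_fun (h.trans h'.symm) ((scP H K).x r t)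
      simp only [MonoidHom.comp_apply] at e1
      rw [ha, hb, e1, inv_mul_cancel]
    have h3 : b = a * (a⁻¹ * b) := by group
    have h4 : Commute a (a⁻¹ * b) := (Subgroup.mem_center_iff.1 (hc h2) a)
    have h5 : (a⁻¹ * b) ^ p = 1 := by
      have := h1 ψ'
      rw [← hb, h3, h4.mul_pow, h1 ψ, one_mul] at this
      exact this
    have h6 := htf _ h2 h5
    exact (inv_mul_eq_one.1 h6)
  -- existence
  set Q := (φ.comp (MonoidHom.fst (↥(D.group K)) E)).eqLocus (π.comp (MonoidHom.snd (↥(D.group K)) E)) with hQ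
  have hmem : ∀ x : ↥(D.group K) × E, x ∈ Q ↔ φ x.1 = π x.2 := fun x => Iff.rfl
  let q : ↥Q →* ↥(D.group K) := (MonoidHom.fst (↥(D.group K)) E).comp Q.subtype
  have Cq : CE q := by
    constructor
    · intro d
      obtain ⟨e, he⟩ := hπ (φ d)
      exact ⟨⟨(d, e), (hmem _).2 he.symm⟩, rfl⟩
    · rintro ⟨⟨d, e⟩, h⟩ hx
      have hd : d = 1 := hx
      subst hd
      have he : π e = 1 := by
        have := (hmem _).1 h
        rw [← this]; exact map_one φ
      rw [Subgroup.mem_center_iff]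
      rintro ⟨⟨d', e'⟩, h'⟩
      apply Subtype.ext
      apply Prod.ext
      · show d' * 1 = 1 * d'
        rw [mul_one, one_mul]
      · exact Subgroup.mem_center_iff.1 (hc he) e'
  obtain ⟨P, hP⟩ := exists_pre_tf_all hD hF Cq hp (by
    rintro ⟨⟨d, e⟩, h⟩ hx hpow
    have hd : d = 1 := hx
    subst hd
    have he : π e = 1 := by
      have := (hmem _).1 h
      rw [← this]; exact map_one φ
    have h2 : e ^ p = 1 := congrArg (fun z : ↥Q => (z : ↥(D.group K) × E).2) hpow
    apply Subtype.ext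
    apply Prod.ext
    · rfl
    · exact htf e he h2)
  obtain ⟨f, hf⟩ := lift_cover P hP
  have hθ' : (scP H K).θG (scP_gen H K) = θ := by
    refine hom_ext_gen (scP_gen H K) fun r hr t => ?_
    apply Subtype.ext
    apply Units.ext
    rw [(scP H K).θG_coe (scP_gen H K), (scP H K).θ_coe hr, scP_x, hθ r t hr]
  refine ⟨((MonoidHom.snd (↥(D.group K)) E).comp Q.subtype).comp f, ?_, fun ψ' h' => huniq _ _ h' ?_⟩
  · refine MonoidHom.ext fun d => ?_
    have h2 := (hmem _).1 (f d).2
    show π (f d).1.2 = φ (θ d)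
    rw [← h2, ← hθ', ← hf]
    rfl
  · refine MonoidHom.ext fun d => ?_
    have h2 := (hmem _).1 (f d).2
    show π (f d).1.2 = φ (θ d)
    rw [← h2, ← hθ', ← hf]
    rfl

end Cfsg.Agent.Mult
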